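import Cfsg.Agent.Block.PrincSection
import Cfsg.Agent.Block.RegSpan
import Cfsg.Agent.Block.Induce
import Cfsg.Agent.Block.SylowIn
import Cfsg.Agent.Char.Ind

/-!
# Normal chains of `p`-subgroups and the alternating sum of Knörr and Robinson
-/

set_option autoImplicit false

open MonoidAlgebra
open scoped ComplexConjugate
open Cfsg Cfsg.Lib.Char Subgroup

namespace Cfsg.Lib.Block.Ht

/-! ### Chains -/

section Chains

variable {G : Type*} [Group G] {p : ℕ}

/-- Chains of nontrivial `p`-subgroups all of whose members are normal in the largest one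
(the empty chain is allowed). -/
structure IsCh (p : ℕ) (s : Finset (Subgroup G)) : Prop where
  chain : ∀ Q ∈ s, ∀ R ∈ s, Q ≤ R ∨ R ≤ Q
  ne_bot : ∀ Q ∈ s, Q ≠ ⊥
  pgroup : ∀ Q ∈ s, IsPGroup p Q
  norm : ∀ Q ∈ s, s.sup id ≤ normalizer (Q : Set G)

/-- The stabilizer of a chain. -/
def chN (s : Finset (Subgroup G)) : Subgroup G := ⨅ Q ∈ s, normalizer ((Q : Subgroup G) : Set G)

theorem mem_chN {s : Finset (Subgroup G)} {x : G} :
    x ∈ chN s ↔ ∀ Q ∈ s, x ∈ normalizer (Q : Set G) := by
  simp [chN, mem_iInf]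

theorem chN_empty : chN (∅ : Finset (Subgroup G)) = ⊤ := by simp [chN]

theorem sup_eq_bot_or_mem {t : Finset (Subgroup G)} (h : ∀ Q ∈ t, ∀ R ∈ t, Q ≤ R ∨ R ≤ Q) :
    t.sup id = ⊥ ∨ t.sup id ∈ t := by
  refine Finset.sup_induction (p := fun x => x = ⊥ ∨ x ∈ t) (Or.inl rfl) ?_
    (fun b hb => Or.inr hb)
  rintro a (rfl | ha) b (rfl | hb)
  · simp
  · simpa using Or.inr hb
  · simpa using Or.inr ha
  · rcases h a ha b hb with h1 | h1
    · rw [sup_eq_right.2 h1]; exact Or.inr hb
    · rw [sup_eq_left.2 h1]; exact Or.inr ha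

theorem mem_normalizer_bot (x : G) : x ∈ normalizer ((⊥ : Subgroup G) : Set G) := by
  rw [normalizer_eq_top]; trivial

theorem mem_normalizer_sup_of_mem {A B : Subgroup G} {x : G} (hA : x ∈ normalizer (A : Set G))
    (hB : x ∈ normalizer (B : Set G)) : x ∈ normalizer ((A ⊔ B : Subgroup G) : Set G) := by
  rw [← conjAct_pointwise_smul_iff] at hA hB ⊢
  rw [smul_sup, hA, hB]

open Classical in
/-- The largest member of the chain not containing `u`. -/
noncomputable def chA (s : Finset (Subgroup G)) (u : G) : Subgroup G :=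
  (s.filter (u ∉ ·)).sup id

/-- The join of the largest member of the chain and `⟨u⟩`. -/
def chT (s : Finset (Subgroup G)) (u : G) : Subgroup G := s.sup id ⊔ zpowers u

/-- The subgroup generated by `A` and the conjugates of `u` under `T`. -/
def genW (A T : Subgroup G) (u : G) : Subgroup G :=
  closure ((A : Set G) ∪ {y | ∃ t ∈ T, y = t * u * t⁻¹})

theorem le_genW (A T : Subgroup G) (u : G) : A ≤ genW A T u :=
  fun _ h => subset_closure (Or.inl h)

theorem conj_mem_genW (A : Subgroup G) {T : Subgroup G} (u : G) {t : G} (ht : t ∈ T) :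
    t * u * t⁻¹ ∈ genW A T u := subset_closure (Or.inr ⟨t, ht, rfl⟩)

theorem self_mem_genW (A T : Subgroup G) (u : G) : u ∈ genW A T u := by
  simpa using conj_mem_genW A u T.one_mem

theorem genW_le {A T K : Subgroup G} {u : G} (hA : A ≤ K) (hu : u ∈ K)
    (hT : T ≤ normalizer (K : Set G)) : genW A T u ≤ K := by
  rw [genW, closure_le]
  rintro y (hy | ⟨t, ht, rfl⟩)
  · exact hA hy
  · exact (mem_normalizer_iff.1 (hT ht) u).1 hu

theorem mem_normalizer_genW [Finite G] {A T : Subgroup G} {u x : G}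
    (hA : x ∈ normalizer (A : Set G)) (hT : x ∈ normalizer (T : Set G))
    (hu : ∃ t ∈ T, x * u * x⁻¹ = t * u * t⁻¹) : x ∈ normalizer (genW A T u : Set G) := by
  refine mem_normalizer_fintype fun n hn => ?_
  have : genW A T u ≤ (genW A T u).comap (MulAut.conj x).toMonoidHom := by
    rw [genW, closure_le]
    rintro y (hy | ⟨t, ht, rfl⟩)
    · exact le_genW A T u ((mem_normalizer_iff.1 hA y).1 hy)
    · obtain ⟨t₀, ht₀, h⟩ := hu
      have h1 : x * (t * u * t⁻¹) * x⁻¹ =
          (x * t * x⁻¹ * t₀) * u * (x * t * x⁻¹ * t₀)⁻¹ := by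
        calc x * (t * u * t⁻¹) * x⁻¹ = (x * t * x⁻¹) * (x * u * x⁻¹) * (x * t * x⁻¹)⁻¹ := by group
          _ = _ := by rw [h]; group
      change x * (t * u * t⁻¹) * x⁻¹ ∈ genW A T u
      rw [h1]
      exact conj_mem_genW A u (T.mul_mem ((mem_normalizer_iff.1 hT t).1 ht) ht₀)
  exact this hn

/-- A proper subgroup of a `p`-subgroup `P` lies in a proper normal subgroup of `P`. -/
theorem exists_lt_normal_of_lt [Finite G] [Fact p.Prime] {R P : Subgroup G} (hP : IsPGroup p P)
    (h : R < P) : ∃ K, R ≤ K ∧ K < P ∧ P ≤ normalizer (K : Set G) := by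
  obtain ⟨K, hRK, hK⟩ := Finite.exists_le_maximal (p := fun K : Subgroup G => K < P) h
  refine ⟨K, hRK, hK.prop, ?_⟩
  have h1 := lt_inf_normalizer_of_lt hP hK.prop
  by_contra h2
  have h3 : P ⊓ normalizer (K : Set G) < P :=
    lt_of_le_of_ne inf_le_left fun h4 => h2 (h4 ▸ inf_le_right)
  exact h1.not_ge (hK.le_of_ge h3 h1.le)

/-- The member toggled by the involution. -/
noncomputable def chW (s : Finset (Subgroup G)) (u : G) : Subgroup G := genW (chA s u) (chT s u) u

open Classical in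
/-- The involution on chains normalized by `u`. -/
noncomputable def chFlip (s : Finset (Subgroup G)) (u : G) : Finset (Subgroup G) :=
  if chW s u ∈ s then s.erase (chW s u) else insert (chW s u) s

variable {s : Finset (Subgroup G)} {u : G}

theorem mem_chFlip {Q : Subgroup G} :
    Q ∈ chFlip s u ↔ (Q ∈ s ∧ Q ≠ chW s u) ∨ (Q = chW s u ∧ chW s u ∉ s) := by
  unfold chFlip
  split_ifs with h
  · simp [h, and_comm]
  · simp only [Finset.mem_insert, h, not_false_eq_true, and_true]
    constructor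
    · rintro (rfl | h1)
      · exact Or.inr rfl
      · exact Or.inl ⟨h1, fun h2 => h (h2 ▸ h1)⟩
    · rintro (h1 | h1)
      · exact Or.inr h1.1
      · exact Or.inl h1

theorem neg_one_pow_card_chFlip {R : Type*} [Ring R] :
    (-1 : R) ^ (chFlip s u).card = -(-1 : R) ^ s.card := by
  classical
  unfold chFlip
  split_ifs with h
  · rw [← Finset.card_erase_add_one h, pow_succ]; simp
  · rw [Finset.card_insert_of_notMem h, pow_succ]; simp

theorem chFlip_ne : chFlip s u ≠ s := by
  intro h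
  have := mem_chFlip (s := s) (u := u) (Q := chW s u)
  rw [h] at this
  tauto

theorem chA_eq_bot_or (hs : IsCh p s) : chA s u = ⊥ ∨ (chA s u ∈ s ∧ u ∉ chA s u) := by
  classical
  rcases sup_eq_bot_or_mem (t := s.filter (u ∉ ·)) (fun Q hQ R hR =>
    hs.chain Q (Finset.mem_filter.1 hQ).1 R (Finset.mem_filter.1 hR).1) with h | h
  · left; unfold chA; convert h
  · right
    have := Finset.mem_filter.1 h
    unfold chA; convert this

theorem le_chA {Q : Subgroup G} (hQ : Q ∈ s) (hu : u ∉ Q) : Q ≤ chA s u := by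
  classical
  unfold chA
  exact Finset.le_sup (f := id) (Finset.mem_filter.2 ⟨hQ, hu⟩)

theorem chA_le {K : Subgroup G} (h : ∀ Q ∈ s, u ∉ Q → Q ≤ K) : chA s u ≤ K := by
  classical
  unfold chA
  exact Finset.sup_le fun Q hQ => h Q (Finset.mem_filter.1 hQ).1 (Finset.mem_filter.1 hQ).2

theorem le_chT {Q : Subgroup G} (hQ : Q ∈ s) : Q ≤ chT s u :=
  (Finset.le_sup (f := id) hQ).trans le_sup_left

theorem self_mem_chT : u ∈ chT s u := (le_sup_right : zpowers u ≤ chT s u) (mem_zpowers u)

theorem chT_le {K : Subgroup G} (h : ∀ Q ∈ s, Q ≤ K) (hu : u ∈ K) : chT s u ≤ K :=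
  sup_le (Finset.sup_le h) (zpowers_le.2 hu)

theorem chN_le_normalizer_sup (hs : IsCh p s) :
    chN s ≤ normalizer ((s.sup id : Subgroup G) : Set G) := by
  intro x hx
  rcases sup_eq_bot_or_mem hs.chain with h | h
  · rw [h]; exact mem_normalizer_bot x
  · exact mem_chN.1 hx _ h

theorem chN_le_normalizer_chA (hs : IsCh p s) : chN s ≤ normalizer (chA s u : Set G) := by
  intro x hx
  rcases chA_eq_bot_or (u := u) hs with h | h
  · rw [h]; exact mem_normalizer_bot x
  · exact mem_chN.1 hx _ h.1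

theorem sup_le_chN (hs : IsCh p s) : s.sup id ≤ chN s :=
  fun _ hx => mem_chN.2 fun Q hQ => hs.norm Q hQ hx

theorem chT_le_chN (hs : IsCh p s) (hu : u ∈ chN s) : chT s u ≤ chN s :=
  sup_le (sup_le_chN hs) (zpowers_le.2 hu)

theorem isPGroup_sup (hs : IsCh p s) : IsPGroup p (s.sup id : Subgroup G) := by
  rcases sup_eq_bot_or_mem hs.chain with h | h
  · rw [h]; exact IsPGroup.of_bot
  · exact hs.pgroup _ h

theorem isPGroup_chT (hs : IsCh p s) (hu : u ∈ chN s) (hp : IsPGroup p (zpowers u)) :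
    IsPGroup p (chT s u) :=
  IsPGroup.to_sup_of_normal_left' (isPGroup_sup hs) hp
    (zpowers_le.2 (chN_le_normalizer_sup hs hu))

theorem chW_le_chT : chW s u ≤ chT s u :=
  genW_le (chA_le fun _ hQ _ => le_chT hQ) self_mem_chT le_normalizer

theorem self_mem_chW : u ∈ chW s u := self_mem_genW _ _ _

theorem le_chW {Q : Subgroup G} (hQ : Q ∈ s) (hu : u ∉ Q) : Q ≤ chW s u :=
  (le_chA hQ hu).trans (le_genW _ _ _)

theorem chW_le (hs : IsCh p s) (hu : u ∈ chN s) {Q : Subgroup G} (hQ : Q ∈ s) (huQ : u ∈ Q) :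
    chW s u ≤ Q := by
  refine genW_le (chA_le fun R hR huR => ?_) huQ
    fun x hx => mem_chN.1 (chT_le_chN hs hu hx) Q hQ
  exact (hs.chain R hR Q hQ).resolve_right fun h => huR (h huQ)

theorem chW_comparable (hs : IsCh p s) (hu : u ∈ chN s) {Q : Subgroup G} (hQ : Q ∈ s) :
    Q ≤ chW s u ∨ chW s u ≤ Q := by
  by_cases h : u ∈ Q
  · exact Or.inr (chW_le hs hu hQ h)
  · exact Or.inl (le_chW hQ h)

variable [Finite G]

theorem chT_le_normalizer_chW (hs : IsCh p s) (hu : u ∈ chN s) :
    chT s u ≤ normalizer (chW s u : Set G) := fun x hx =>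
  mem_normalizer_genW (chN_le_normalizer_chA hs (chT_le_chN hs hu hx)) (le_normalizer hx)
    ⟨x, hx, rfl⟩

theorem mem_normalizer_chW (hs : IsCh p s) {x : G} (hx : x ∈ chN s)
    (hxu : x ∈ centralizer ({u} : Set G)) : x ∈ normalizer (chW s u : Set G) := by
  have hc : x * u * x⁻¹ = u := by
    rw [mem_centralizer_singleton_iff] at hxu
    rw [hxu]; group
  refine mem_normalizer_genW (chN_le_normalizer_chA hs hx)
    (mem_normalizer_sup_of_mem (chN_le_normalizer_sup hs hx) ?_) ⟨1, one_mem _, by simp [hc]⟩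
  refine centralizer_le_normalizer _ ?_
  rwa [Princ.centralizer_zpowers]

theorem inf_le_chN_chFlip (hs : IsCh p s) :
    chN s ⊓ centralizer ({u} : Set G) ≤ chN (chFlip s u) := by
  intro x hx
  refine mem_chN.2 fun Q hQ => ?_
  rcases mem_chFlip.1 hQ with h | h
  · exact mem_chN.1 hx.1 Q h.1
  · rw [h.1]; exact mem_normalizer_chW hs hx.1 hx.2

omit [Finite G] in
theorem chA_chFlip : chA (chFlip s u) u = chA s u := by
  refine le_antisymm (chA_le fun Q hQ hu => ?_) (chA_le fun Q hQ hu => ?_)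
  · rcases mem_chFlip.1 hQ with h | h
    · exact le_chA h.1 hu
    · exact absurd (h.1 ▸ self_mem_chW) hu
  · exact le_chA (mem_chFlip.2 (Or.inl ⟨hQ, fun h => hu (h ▸ self_mem_chW)⟩)) hu

theorem chT_chFlip [Fact p.Prime] (hs : IsCh p s) (hu : u ∈ chN s) (hp : IsPGroup p (zpowers u)) :
    chT (chFlip s u) u = chT s u := by
  have hle : chT (chFlip s u) u ≤ chT s u := by
    refine chT_le (fun Q hQ => ?_) self_mem_chT
    rcases mem_chFlip.1 hQ with h | h
    · exact le_chT h.1
    · rw [h.1]; exact chW_le_chT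
  refine hle.eq_or_lt.resolve_right fun hlt => ?_
  obtain ⟨K, h1, h2, h3⟩ := exists_lt_normal_of_lt (isPGroup_chT hs hu hp) hlt
  have hW : chW s u ≤ K := by
    refine genW_le (le_trans ?_ h1) (h1 self_mem_chT) h3
    rw [← chA_chFlip]
    exact chA_le fun Q hQ _ => le_chT hQ
  refine h2.not_ge (chT_le (fun Q hQ => ?_) (h1 self_mem_chT))
  by_cases h : Q = chW s u
  · rw [h]; exact hW
  · exact (le_chT (mem_chFlip.2 (Or.inl ⟨hQ, h⟩))).trans h1

theorem chW_chFlip [Fact p.Prime] (hs : IsCh p s) (hu : u ∈ chN s) (hp : IsPGroup p (zpowers u)) :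
    chW (chFlip s u) u = chW s u := by
  rw [chW, chA_chFlip, chT_chFlip hs hu hp, chW]

theorem chFlip_chFlip [Fact p.Prime] (hs : IsCh p s) (hu : u ∈ chN s)
    (hp : IsPGroup p (zpowers u)) : chFlip (chFlip s u) u = s := by
  ext Q
  rw [mem_chFlip, chW_chFlip hs hu hp, mem_chFlip, mem_chFlip]
  by_cases h : Q = chW s u
  · subst h; tauto
  · tauto

theorem isCh_chFlip [Fact p.Prime] (hs : IsCh p s) (hu : u ∈ chN s) (hp : IsPGroup p (zpowers u))
    (hu1 : u ≠ 1) : IsCh p (chFlip s u) where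
  chain Q hQ R hR := by
    rcases mem_chFlip.1 hQ with h | h <;> rcases mem_chFlip.1 hR with h' | h'
    · exact hs.chain Q h.1 R h'.1
    · rw [h'.1]; exact chW_comparable hs hu h.1
    · rw [h.1]; exact (chW_comparable hs hu h'.1).symm
    · rw [h.1, h'.1]; exact Or.inl le_rfl
  ne_bot Q hQ := by
    rcases mem_chFlip.1 hQ with h | h
    · exact hs.ne_bot Q h.1
    · rw [h.1]; intro h0
      exact hu1 (mem_bot.1 (h0 ▸ self_mem_chW))
  pgroup Q hQ := by
    rcases mem_chFlip.1 hQ with h | h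
    · exact hs.pgroup Q h.1
    · rw [h.1]; exact (isPGroup_chT hs hu hp).to_le chW_le_chT
  norm Q hQ := by
    have h1 : (chFlip s u).sup id ≤ chT s u := by
      rw [← chT_chFlip hs hu hp]; exact le_sup_left
    refine h1.trans ?_
    rcases mem_chFlip.1 hQ with h | h
    · exact fun x hx => mem_chN.1 (chT_le_chN hs hu hx) Q h.1
    · rw [h.1]; exact chT_le_normalizer_chW hs hu

theorem chN_chFlip_inf [Fact p.Prime] (hs : IsCh p s) (hu : u ∈ chN s)
    (hp : IsPGroup p (zpowers u)) (hu1 : u ≠ 1) :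
    chN (chFlip s u) ⊓ centralizer ({u} : Set G) = chN s ⊓ centralizer ({u} : Set G) := by
  refine le_antisymm (le_inf ?_ inf_le_right) (le_inf (inf_le_chN_chFlip hs) inf_le_right)
  have := inf_le_chN_chFlip (u := u) (isCh_chFlip hs hu hp hu1)
  rwa [chFlip_chFlip hs hu hp] at this

open Classical in
/-- Cancellation: an alternating sum over the chains normalized by `g` vanishes when the summand
only depends on `C_{N(s)}(u)` and `T(s)⟨u⟩`, `u ≠ 1` being the `p`-part of `g`. -/
theorem sum_chains_eq_zero [Fact p.Prime] [Fintype (Finset (Subgroup G))] {g : G}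
    (hg : IsPPart p g u) (hu1 : u ≠ 1) (F : Subgroup G → Subgroup G → ℂ) :
    ∑ s ∈ Finset.univ.filter (fun s => IsCh p s ∧ g ∈ chN s),
      (-1 : ℂ) ^ s.card * F (chN s ⊓ centralizer ({u} : Set G)) (chT s u) = 0 := by
  have hp := IsPPart_isPGroup_zpowers Fact.out hg
  refine Finset.sum_involution (fun s _ => chFlip s u) (fun s hs => ?_) (fun s _ _ => chFlip_ne)
    (fun s hs => ?_) (fun s hs => ?_)
  · obtain ⟨h1, h2⟩ := (Finset.mem_filter.1 hs).2
    have hu := IsPPart_mem Fact.out hg h2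
    rw [neg_one_pow_card_chFlip, chN_chFlip_inf h1 hu hp hu1, chT_chFlip h1 hu hp]
    ring
  · obtain ⟨h1, h2⟩ := (Finset.mem_filter.1 hs).2
    have hu := IsPPart_mem Fact.out hg h2
    exact Finset.mem_filter.2 ⟨Finset.mem_univ _, isCh_chFlip h1 hu hp hu1,
      inf_le_chN_chFlip h1 ⟨h2, IsPPart_mem_centralizer hg⟩⟩
  · obtain ⟨h1, h2⟩ := (Finset.mem_filter.1 hs).2
    exact chFlip_chFlip h1 (IsPPart_mem Fact.out hg h2) hp

end Chains

/-! ### Sums of squares of character values over unions of blocks -/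

section Sq

variable {G : Type*} [Group G] [Finite G] {p : ℕ} {M : Ideal AlgInt}

/-- The characters whose reduced central character takes the value `1` at `z`. -/
def idSet (M : Ideal AlgInt) (z : (kM M)[G]) : Set (IrrCharacter G) :=
  {ψ | lam M (ψ : G → ℂ) z = 1}

theorem isUnionOfBlocks_idSet (hM : IsPModular p M) (z : (kM M)[G]) :
    Princ.IsUnionOfBlocks M (idSet M z) := by
  intro χ hχ ψ hψ
  change lam M (ψ : G → ℂ) z = 1
  rw [← (sameBlock_iff_lam hM χ.2 ψ.2).1 hψ]
  exact hχ

theorem idSet_eB (hM : IsPModular p M) {B : Set (IrrCharacter G)} (hB : IsPBlock M B) :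
    idSet M (eB M B) = B := by
  ext χ
  by_cases h : χ ∈ B
  · exact iff_of_true (lam_eB_of_mem hM hB h) h
  · refine iff_of_false (fun h1 => ?_) h
    have h2 : lam M (χ : G → ℂ) (eB M B) = 1 := h1
    rw [lam_eB_of_notMem hM hB h] at h2
    exact zero_ne_one h2

theorem sum_classInner_pRegularPart_union [Fintype G] (hM : IsPModular p M)
    {S : Set (IrrCharacter G)} (hS : Princ.IsUnionOfBlocks M S) :
    ∑ χ ∈ irrFin S, classInner (pRegularPart p (χ : G → ℂ)) χ = (blockRank p S : ℂ) := by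
  have h1 : ∀ θ : G → ℂ, InSpan S (pRegularPart p (blockPart S θ)) := by
    intro θ
    rw [Cfsg.Lib.Block.blockPart_eq S θ, pRegularPart_sum]
    refine inSpan_sum _ fun χ hχ => ?_
    rw [pRegularPart_smul]
    exact ((inSpan_pRegularPart_irr hM (isPBlock_blockOf' χ.2) (mem_blockOf_self' hM χ)).mono
      (hS χ (by simpa using hχ))).smul _
  have h2 : LinearMap.trace ℂ _ (regLin p ∘ₗ partLin S) = (blockRank p S : ℂ) := by
    rw [blockRank_eq_finrank_range]
    refine trace_eq_finrank_range _ fun θ => ?_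
    change pRegularPart p (blockPart S (pRegularPart p (blockPart S θ))) =
      pRegularPart p (blockPart S θ)
    rw [h1 θ, pRegularPart_idem]
  rw [← h2, trace_comp_partLin]; rfl

/-- `∑_{χ ∈ S} |χ g|²`. -/
noncomputable def sqS (S : Set (IrrCharacter G)) (g : G) : ℂ :=
  ∑ χ ∈ irrFin S, (χ : G → ℂ) g * conj ((χ : G → ℂ) g)

theorem sum_sqS_singular [Fintype G] (hM : IsPModular p M)
    {S : Set (IrrCharacter G)} (hS : Princ.IsUnionOfBlocks M S) :
    ∑ g : G, (if p ∣ orderOf g then sqS S g else 0) =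
      (Nat.card G : ℂ) * ((Nat.card S : ℂ) - (blockRank p S : ℂ)) := by
  rw [← sum_classInner_pRegularPart_union hM hS, ← card_irrFin, Finset.card_eq_sum_ones,
    Nat.cast_sum, ← Finset.sum_sub_distrib, Finset.mul_sum]
  have : ∀ g : G, (if p ∣ orderOf g then sqS S g else 0) = ∑ χ ∈ irrFin S,
      if p ∣ orderOf g then (χ : G → ℂ) g * conj ((χ : G → ℂ) g) else 0 := by
    intro g
    split_ifs <;> simp [sqS]
  simp only [this]
  rw [Finset.sum_comm]
  refine Finset.sum_congr rfl fun χ _ => ?_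
  rw [Nat.cast_one, ← χ.2.classInner_self, mul_sub, card_mul_classInner, card_mul_classInner,
    ← Finset.sum_sub_distrib]
  refine Finset.sum_congr rfl fun g _ => ?_
  rw [pRegularPart_eq_ite]
  split_ifs <;> simp

theorem idSet_eq_trB (hM : IsPModular p M) {H : Type*} [Group H] [Finite H] (e : H ≃* G)
    {w : (kM M)[H]} {z : (kM M)[G]} (hz : z ∈ Subalgebra.center (kM M) (kM M)[G])
    (h : ∀ x, w.coeff x = z.coeff (e x)) : idSet M w = trB e (idSet M z) := by
  ext θ
  obtain ⟨χ, rfl⟩ := (irrComap e).surjective θ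
  rw [irrComap_mem_trB]
  change lam M _ w = 1 ↔ lam M _ z = 1
  rw [← lamB_blockOf hM χ.2, ← lamB_trB hM (isPBlock_blockOf' χ.2) e hz h, trB_blockOf,
    lamB_blockOf hM (χ.2.comp_equiv e)]
  rfl

theorem sqS_trB {H : Type*} [Group H] [Finite H] (e : H ≃* G) (S : Set (IrrCharacter G)) (x : H) :
    sqS (trB e S) x = sqS S (e x) := by
  rw [sqS, sqS, ← Cfsg.Lib.Block.finsum_mem_irr, ← Cfsg.Lib.Block.finsum_mem_irr, finsum_mem_trB]
  rfl

variable [Fact p.Prime]

theorem sqS_idSet_section (hM : IsPModular p M) {z : (kM M)[G]}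
    (hz : z ∈ Subalgebra.center (kM M) (kM M)[G]) {x : G} (hx : ∃ k : ℕ, orderOf x = p ^ k)
    {y : centralizer ({x} : Set G)} (hy : ¬ p ∣ orderOf y) :
    sqS (idSet M z) (x * y) = sqS (idSet M (resSub (centralizer ({x} : Set G)) z)) y := by
  classical
  have h1 : sqS (idSet M z) (x * y) = ∑ B ∈ blockFin M G, if lamB M B z = 1 then
      sqS (Princ.indSet M x B) y else 0 := by
    rw [sqS, sum_irrFin_eq_sum_ite, ← sum_blockFin_sum hM]
    refine Finset.sum_congr rfl fun B hB => ?_
    have hB' : IsPBlock M B := by simpa using hB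
    rw [sqS, ← Princ.sum_mul_conj_section hM hx hB' hy hy]
    split_ifs with h
    · refine Finset.sum_congr rfl fun χ hχ => if_pos ?_
      change lam M _ z = 1
      rwa [← lamB_eq_lam hM hB' (by simpa using hχ)]
    · refine Finset.sum_eq_zero fun χ hχ => if_neg ?_
      change ¬ lam M _ z = 1
      rwa [← lamB_eq_lam hM hB' (by simpa using hχ)]
  have h2 : ∀ B, (if lamB M B z = 1 then sqS (Princ.indSet M x B) y else 0) =
      ∑ ξ : IrrCharacter (centralizer ({x} : Set G)),
        if lamB M B z = 1 ∧ ξ ∈ Princ.indSet M x B then (ξ : _ → ℂ) y * conj ((ξ : _ → ℂ) y)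
          else 0 := by
    intro B
    rw [sqS, sum_irrFin_eq_sum_ite]
    split_ifs with h <;> simp [h]
  rw [h1]
  simp only [h2]
  rw [Finset.sum_comm, sqS, sum_irrFin_eq_sum_ite]
  refine Finset.sum_congr rfl fun ξ _ => ?_
  obtain ⟨B, hB⟩ := Princ.inducedBlockDefined_centralizer hM hx (isPBlock_blockOf' (M := M) ξ.2)
  rw [Finset.sum_eq_single B]
  · have h3 : lamB M B z = 1 ∧ ξ ∈ Princ.indSet M x B ↔
        ξ ∈ idSet M (resSub (centralizer ({x} : Set G)) z) := by
      change _ ↔ lam M _ _ = 1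
      rw [← lamB_resSub_of_isInducedBlock hM hB hz, lamB_blockOf hM ξ.2]
      exact and_iff_left hB
    simp only [h3]
  · intro B' _ hne
    exact if_neg fun h => hne (isInducedBlock_unique' hM h.2 hB)
  · intro h
    exact absurd (by simpa using hB.2.1) h

/-- The ambient form: `H` a subgroup, `E` an `H`-fixed element of the group algebra. -/
noncomputable def sqH (M : Ideal AlgInt) (H : Subgroup G) (E : (kM M)[G]) : G → ℂ :=
  extendByZero H (sqS (idSet M (resSub H E)))

omit [Fact p.Prime] in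
theorem sqH_top (hM : IsPModular p M) {z : (kM M)[G]}
    (hz : z ∈ Subalgebra.center (kM M) (kM M)[G]) (g : G) :
    sqH M ⊤ z g = sqS (idSet M z) g := by
  rw [sqH, extendByZero_of_mem _ _ (mem_top g),
    idSet_eq_trB hM topEquiv hz (fun x => rfl), sqS_trB]
  rfl

theorem sqH_section (hM : IsPModular p M) {H : Subgroup G} {E : (kM M)[G]} (hE : IsFixedBy H E)
    {g u : G} (hg : IsPPart p g u) (hgH : g ∈ H) :
    sqH M H E g = sqH M (H ⊓ centralizer ({u} : Set G))
      (trunc (centralizer ({u} : Set G) : Set G) E) (u⁻¹ * g) := by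
  have hu : u ∈ H := IsPPart_mem Fact.out hg hgH
  have hy : u⁻¹ * g ∈ H ⊓ centralizer ({u} : Set G) :=
    ⟨H.mul_mem (H.inv_mem hu) hgH, Subgroup.mul_mem _ (Subgroup.inv_mem _
      (mem_centralizer_singleton_iff.2 rfl)) (IsPPart_mem_centralizer hg)⟩
  let u' : H := ⟨u, hu⟩
  let e : ↥(H ⊓ centralizer ({u} : Set G)) ≃* centralizer ({u'} : Set H) :=
    { toFun := fun x => ⟨⟨x, x.2.1⟩, mem_centralizer_singleton_iff.2
        (Subtype.ext (mem_centralizer_singleton_iff.1 x.2.2))⟩
      invFun := fun x => ⟨x, ⟨x.1.2, mem_centralizer_singleton_iff.2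
        (congrArg Subtype.val (mem_centralizer_singleton_iff.1 x.2))⟩⟩
      left_inv := fun _ => rfl
      right_inv := fun _ => rfl
      map_mul' := fun _ _ => rfl }
  have hz := resSub_mem_center hE
  rw [sqH, sqH, extendByZero_of_mem _ _ hgH, extendByZero_of_mem _ _ hy,
    idSet_eq_trB hM e (z := resSub _ (resSub H E)) (resSub_mem_center_of_mem_center _ hz)
      (fun x => coeff_trunc_of_mem E x.2.2), sqS_trB, ← sqS_idSet_section hM hz]
  · congr 1
    ext
    simp [e, u']
  · obtain ⟨k, hk⟩ := IsPPart_orderOf hg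
    exact ⟨k, by rw [← hk, ← orderOf_coe]⟩
  · rw [← orderOf_coe, ← orderOf_coe]
    exact IsPPart_not_dvd hg

omit [Fact p.Prime] in
theorem sum_sqH_singular [Fintype G] (hM : IsPModular p M) (H : Subgroup G) (E : (kM M)[G]) :
    ∑ g : G, (if p ∣ orderOf g then sqH M H E g else 0) =
      (Nat.card H : ℂ) * ((Nat.card (idSet M (resSub H E)) : ℂ) -
        (blockRank p (idSet M (resSub H E)) : ℂ)) := by
  letI := Fintype.ofFinite H
  rw [← sum_sqS_singular hM (isUnionOfBlocks_idSet hM _)]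
  have := sum_extendByZero_mul H (sqS (idSet M (resSub H E)))
    (fun g => if p ∣ orderOf g then 1 else 0)
  simpa [sqH] using this

omit [Finite G] [Fact p.Prime] in
theorem centralizer_sup_zpowers (T : Subgroup G) (u : G) :
    centralizer ((T ⊔ zpowers u : Subgroup G) : Set G) =
      centralizer ({u} : Set G) ⊓ centralizer (T : Set G) := by
  ext x
  rw [← Princ.centralizer_zpowers, mem_inf, ← zpowers_le, ← zpowers_le, ← zpowers_le,
    ← le_centralizer_iff, ← le_centralizer_iff (H := zpowers u), ← le_centralizer_iff (H := T),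
    sup_le_iff, and_comm]

open Classical in
/-- The alternating sum over all normal chains, the empty one included, vanishes. -/
theorem knorr_robinson_sum [Fintype (Finset (Subgroup G))] (hM : IsPModular p M) {z : (kM M)[G]}
    (hz : z ∈ Subalgebra.center (kM M) (kM M)[G]) :
    ∑ s ∈ Finset.univ.filter (fun s : Finset (Subgroup G) => IsCh p s),
      (-1 : ℂ) ^ s.card * ((Nat.card (chN s) : ℂ) *
        ((Nat.card (idSet M (brH (s.sup id) (chN s) z)) : ℂ) -
          (blockRank p (idSet M (brH (s.sup id) (chN s) z)) : ℂ))) = 0 := by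
  letI := Fintype.ofFinite G
  simp only [brH_apply, ← sum_sqH_singular hM, Finset.mul_sum]
  rw [Finset.sum_comm]
  refine Finset.sum_eq_zero fun g _ => ?_
  by_cases hg : p ∣ orderOf g
  swap
  · simp [hg]
  simp only [hg, if_true]
  obtain ⟨u, hu⟩ := exists_isPPart (Fact.out : p.Prime) g
  have hu1 : u ≠ 1 := fun h => (IsPPart_eq_one_iff Fact.out hu).1 h hg
  rw [← sum_chains_eq_zero hu hu1
    (fun L T => sqH M L (trunc (centralizer (T : Set G) : Set G) z) (u⁻¹ * g)),
    ← Finset.filter_filter, Finset.sum_filter (fun s => g ∈ chN s)]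
  refine Finset.sum_congr rfl fun s hs => ?_
  have hs' : IsCh p s := (Finset.mem_filter.1 hs).2
  split_ifs with h
  · rw [sqH_section hM ((isFixedBy_of_mem_center hz _).trunc_centralizer
      (chN_le_normalizer_sup hs')) hu h, trunc_trunc, chT, centralizer_sup_zpowers, coe_inf]
  · rw [sqH, extendByZero_of_notMem _ _ h, mul_zero]

end Sq

end Cfsg.Lib.Block.Ht
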