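import Cfsg.Agent.Solv.ClassSize
import Mathlib.GroupTheory.ClassEquation
import Mathlib.Algebra.Order.BigOperators.Group.Multiset
import Mathlib.Data.Rat.Floor
import Mathlib.Tactic.FieldSimp
import Mathlib.Tactic.Positivity

/-!
# Landau's theorem: the class number bounds the order of a finite group
-/

namespace Cfsg.Lib.Block

universe u

/-- Finitely many ways to write a rational number as a sum of at most `k` unit fractions. -/
theorem exists_bound_unit_fractions (k : ℕ) (q : ℚ) : ∃ N : ℕ, ∀ s : Multiset ℕ, s.card ≤ k →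
    (∀ n ∈ s, 0 < n) → (s.map fun n : ℕ => (1 : ℚ) / n).sum = q → ∀ n ∈ s, n ≤ N := by
  induction k generalizing q with
  | zero =>
    refine ⟨0, fun s hs _ _ n hn => ?_⟩
    rw [Nat.le_zero, Multiset.card_eq_zero] at hs
    simp [hs] at hn
  | succ k ih =>
    choose f hf using ih
    set m0 : ℕ := ⌊((k + 1 : ℕ) : ℚ) / q⌋₊ with hm0
    refine ⟨m0 + ∑ m ∈ Finset.range (m0 + 1), f (q - 1 / m), fun s hs hpos hsum n hn => ?_⟩
    have hne : s ≠ 0 := fun h => by simp [h] at hn
    obtain ⟨m, hm, hmin⟩ := Multiset.exists_min_image (fun x : ℕ => x) hne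
    have hm_pos : (0 : ℚ) < m := by exact_mod_cast hpos m hm
    have hle : q ≤ ((k + 1 : ℕ) : ℚ) / m := by
      rw [← hsum]
      have h1 : (s.map fun n : ℕ => (1 : ℚ) / n).sum ≤ (s.map fun n : ℕ => (1 : ℚ) / n).card • ((1 : ℚ) / m) := by
        refine Multiset.sum_le_card_nsmul _ _ fun x hx => ?_
        obtain ⟨y, hy, rfl⟩ := Multiset.mem_map.1 hx
        exact one_div_le_one_div_of_le hm_pos (by exact_mod_cast hmin y hy)
      refine h1.trans ?_
      rw [Multiset.card_map, nsmul_eq_mul, mul_one_div]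
      exact div_le_div_of_nonneg_right (by exact_mod_cast hs) hm_pos.le
    obtain ⟨t, rfl⟩ := Multiset.exists_cons_of_mem hm
    rw [Multiset.map_cons, Multiset.sum_cons] at hsum
    have hq : 0 < q := by
      rw [← hsum]
      refine add_pos_of_pos_of_nonneg (by positivity) (Multiset.sum_nonneg fun x hx => ?_)
      obtain ⟨y, -, rfl⟩ := Multiset.mem_map.1 hx
      positivity
    have hmm0 : m ≤ m0 := by
      refine Nat.le_floor ?_
      rw [le_div_iff₀ hq, mul_comm]
      exact (le_div_iff₀ hm_pos).1 hle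
    rcases Multiset.mem_cons.1 hn with rfl | hnt
    · exact hmm0.trans (Nat.le_add_right _ _)
    · have h1 := hf (q - 1 / m) t (by rw [Multiset.card_cons] at hs; omega)
        (fun x hx => hpos x (Multiset.mem_cons_of_mem hx)) (by rw [← hsum]; ring) n hnt
      have h2 : f (q - 1 / m) ≤ ∑ m ∈ Finset.range (m0 + 1), f (q - 1 / m) :=
        Finset.single_le_sum (f := fun m : ℕ => f (q - 1 / m)) (fun _ _ => Nat.zero_le _)
          (Finset.mem_range.2 (Nat.lt_succ_of_le hmm0))
      omega

/-- Landau's theorem. -/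
theorem exists_card_le_of_card_conjClasses (k : ℕ) : ∃ N : ℕ, ∀ (G : Type u) [Group G] [Finite G],
    Nat.card (ConjClasses G) ≤ k → Nat.card G ≤ N := by
  classical
  obtain ⟨N, hN⟩ := exists_bound_unit_fractions k 1
  refine ⟨N, fun G _ _ hk => ?_⟩
  have := Fintype.ofFinite (ConjClasses G)
  let c : ConjClasses G → ℕ := fun C => Nat.card G / C.carrier.ncard
  have hc : ∀ x : G, c (ConjClasses.mk x) = Nat.card (Subgroup.centralizer ({x} : Set G)) := by
    intro x
    simp only [c]
    rw [Cfsg.Lib.Solv.ClassSize.ncard_carrier_mk, ← (Subgroup.centralizer ({x} : Set G)).card_mul_index,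
      Nat.mul_div_cancel _ (Nat.pos_of_ne_zero Subgroup.index_ne_zero_of_finite)]
  have hG : (0 : ℚ) < Nat.card G := by exact_mod_cast Nat.card_pos
  have hc' : ∀ C : ConjClasses G, (1 : ℚ) / c C = C.carrier.ncard / Nat.card G := by
    intro C
    obtain ⟨x, rfl⟩ := ConjClasses.mk_surjective C
    have h0 : (0 : ℚ) < Nat.card (Subgroup.centralizer ({x} : Set G)) := by exact_mod_cast Nat.card_pos
    rw [hc, Cfsg.Lib.Solv.ClassSize.ncard_carrier_mk, div_eq_div_iff h0.ne' hG.ne', one_mul, mul_comm]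
    exact_mod_cast (Subgroup.centralizer ({x} : Set G)).card_mul_index.symm
  refine hN ((Finset.univ : Finset (ConjClasses G)).val.map c) ?_ ?_ ?_ _ ?_
  · rw [Multiset.card_map, Finset.card_val, Finset.card_univ, ← Nat.card_eq_fintype_card]; exact hk
  · intro n hn
    obtain ⟨C, -, rfl⟩ := Multiset.mem_map.1 hn
    obtain ⟨x, rfl⟩ := ConjClasses.mk_surjective C
    rw [hc]; exact Nat.card_pos
  · rw [Multiset.map_map]
    change ∑ C : ConjClasses G, (1 : ℚ) / c C = 1
    simp only [hc']
    rw [← Finset.sum_div, div_eq_one_iff_eq hG.ne', ← Group.sum_card_conj_classes_eq_card,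
      finsum_eq_sum_of_fintype, Nat.cast_sum]
  · refine Multiset.mem_map.2 ⟨ConjClasses.mk 1, Finset.mem_univ _, ?_⟩
    rw [hc, Subgroup.centralizer_eq_top_iff_subset.2 (by simp), Subgroup.card_top]

end Cfsg.Lib.Block
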