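import Cfsg.Agent.Block.CoverRank
import Cfsg.Agent.Block.KnorrRob
import Cfsg.Agent.Block.GalPow

/-! Automorphisms permute the projective indecomposable characters; counting characters of a block
fixed by a Galois automorphism. -/

open MonoidAlgebra Cfsg Cfsg.Lib.Char Cfsg.Lib.Block.Idem Cfsg.Lib.Block.Pim Subgroup
open scoped ComplexConjugate

namespace Cfsg.Lib.Block

variable {G : Type*} [Group G] {p : ℕ} {M : Ideal AlgInt} {B : Set (IrrCharacter G)}

theorem mem_PIM_of_inSpan [Finite G] (hM : IsPModular p M) (hB : IsPBlock M B) {Φ : G → ℂ}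
    (h : Φ ∈ PIM M (Set.univ : Set (IrrCharacter G))) (hs : InSpan B Φ) : Φ ∈ PIM M B := by
  have h0 : Φ ≠ 0 := PIM.ne_zero ⟨Φ, h⟩
  obtain ⟨c, hc, -, rfl⟩ := h
  have hz : ∀ a, a * eB M B = eB M B * a := Subalgebra.mem_center_iff.1 (eB_mem_center B)
  refine ⟨c, hc, (hc.prim (c * eB M B) trivial ?_ ?_ ?_).resolve_left fun h => h0 ?_, rfl⟩
  · change c * eB M B * (c * eB M B) = c * eB M B
    rw [mul_assoc, ← mul_assoc (eB M B), ← hz c, mul_assoc, eB_mul_self hM hB, ← mul_assoc,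
      hc.idem.eq]
  · rw [← mul_assoc, hc.idem.eq]
  · rw [mul_assoc, ← hz c, ← mul_assoc, hc.idem.eq]
  · rw [← hs, ← pim_mul_eB hM hB hc.idem, h, pim_zero]

theorem InSpan.comp_equiv [Finite G] {H : Type*} [Group H] [Finite H] (e : H ≃* G) {θ : G → ℂ}
    (h : InSpan B θ) : InSpan (trB e B) fun x => θ (e x) :=
  funext fun x => (blockPart_trB e B θ x).trans (congrFun h _)

variable [Fintype G] [Fact p.Prime]

/-- The trace of an automorphism on the `p`-regular class functions of a block. -/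
theorem exists_nat_trace_block (hM : IsPModular p M) (hB : IsPBlock M B) (e : G ≃* G) :
    ∃ m : ℕ, ∑ ξ ∈ irrFin B, classInner (fun x => pRegularPart p (ξ : G → ℂ) (e x)) ξ = m := by
  classical
  by_cases h : trB e B = B
  swap
  · refine ⟨0, (Finset.sum_eq_zero fun ξ hξ => ?_).trans Nat.cast_zero.symm⟩
    rw [mem_irrFin] at hξ
    exact ((inSpan_pRegularPart_irr hM hB hξ).comp_equiv e).classInner_of_disjoint (inSpan_irr hξ)
      (isPBlock_disjoint hM (isPBlock_trB_of e hB) hB h)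
  let π : PIM M B → PIM M B := fun Φ => ⟨fun x => Φ.1 (e x), mem_PIM_of_inSpan hM hB
    (mem_PIM_univ_comp e (PIM_subset_univ B Φ.2)) (by
      have h1 := (PIM.inSpan hM hB Φ).comp_equiv e
      rwa [h] at h1)⟩
  have hc : ∀ ξ : IrrCharacter G, ∃ c : PIM M B → ℂ, ξ ∈ B →
      pRegularPart p (ξ : G → ℂ) = ∑ Φ, c Φ • (Φ : G → ℂ) := fun ξ => by
    by_cases hξ : ξ ∈ B
    · have h1 : pRegularPart p (ξ : G → ℂ) ∈
          Submodule.span ℂ (Set.range fun Φ : PIM M B => (Φ : G → ℂ)) := by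
        rw [span_PIM hM hB]
        exact Submodule.subset_span ⟨ξ, hξ, rfl⟩
      obtain ⟨c, hc⟩ := (Submodule.mem_span_range_iff_exists_fun ℂ).1 h1
      exact ⟨c, fun _ => hc.symm⟩
    · exact ⟨0, fun h => absurd h hξ⟩
  choose c hc using hc
  have h1 : ∀ Φ' Φ : PIM M B, ∑ ξ ∈ irrFin B, (dec ξ Φ' : ℂ) * c ξ Φ = if Φ = Φ' then 1 else 0 := by
    intro Φ'
    refine congrFun (coeff_unique (M := M) (B := B) ?_)
    simp only [ite_smul, one_smul, zero_smul, Finset.sum_ite_eq', Finset.mem_univ, if_true,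
      Finset.sum_smul]
    rw [Finset.sum_comm]
    conv_rhs => rw [← PIM.pRegularPart hM Φ', PIM.eq_sum hM hB Φ', pRegularPart_sum]
    refine Finset.sum_congr rfl fun ξ hξ => ?_
    rw [pRegularPart_smul, hc ξ (mem_irrFin.1 hξ), Finset.smul_sum]
    simp only [mul_smul]
  refine ⟨(Finset.univ.filter fun Φ => Φ = π Φ).card, ?_⟩
  rw [← Finset.sum_boole]
  simp only [← h1]
  rw [Finset.sum_comm]
  refine Finset.sum_congr rfl fun ξ hξ => ?_
  have h2 : (fun x => pRegularPart p (ξ : G → ℂ) (e x)) = ∑ Φ, c ξ Φ • (π Φ : G → ℂ) := by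
    ext x
    rw [hc ξ (mem_irrFin.1 hξ)]
    simp [π]
  rw [h2, classInner_sum_left]
  exact Finset.sum_congr rfl fun Φ _ => by rw [classInner_smul_left, dec_cast, mul_comm]

theorem exists_nat_trace_union (hM : IsPModular p M) {S : Set (IrrCharacter G)}
    (hS : Princ.IsUnionOfBlocks M S) (e : G ≃* G) :
    ∃ m : ℕ, ∑ ξ ∈ irrFin S, classInner (fun x => pRegularPart p (ξ : G → ℂ) (e x)) ξ = m := by
  classical
  rw [← Finset.sum_fiberwise_of_maps_to (g := fun χ : IrrCharacter G => blockOf M (χ : G → ℂ))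
    (t := (irrFin S).image fun χ : IrrCharacter G => blockOf M (χ : G → ℂ))
    (fun χ hχ => Finset.mem_image_of_mem _ hχ)]
  refine Finset.sum_induction _ (fun z : ℂ => ∃ m : ℕ, z = m) ?_ ⟨0, by simp⟩ fun b hb => ?_
  · rintro _ _ ⟨a, rfl⟩ ⟨b, rfl⟩
    exact ⟨a + b, by simp⟩
  obtain ⟨χ, hχ, rfl⟩ := Finset.mem_image.1 hb
  rw [mem_irrFin] at hχ
  obtain ⟨m, hm⟩ := exists_nat_trace_block hM (isPBlock_blockOf' (M := M) χ) e
  refine ⟨m, Eq.trans (Finset.sum_congr ?_ fun _ _ => rfl) hm⟩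
  ext ψ
  simp only [Finset.mem_filter, mem_irrFin]
  constructor
  · rintro ⟨-, h2⟩
    rw [← h2]; exact mem_blockOf_self' hM ψ
  · intro h2
    exact ⟨hS χ hχ h2, Princ.blockOf_eq_of_mem hM (isPBlock_blockOf' χ) h2⟩

open Classical in
theorem exists_nat_section (hM : IsPModular p M) (hB : IsPBlock M B) {k : ℕ}
    (hk : k.Coprime (Nat.card G)) (h : ∀ g : G, ¬ p ∣ orderOf g → g ^ k = g) (x : G) :
    ∃ m : ℕ, ∑ g with IsPPart p g x,
      ∑ χ ∈ irrFin B, (χ : G → ℂ) (g ^ k) * conj ((χ : G → ℂ) g) = m := by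
  have hp := hM.1
  by_cases hx : (∃ j : ℕ, orderOf x = p ^ j) ∧ IsConj x (x ^ k)
  swap
  · refine ⟨0, (Finset.sum_eq_zero fun g hg => ?_).trans Nat.cast_zero.symm⟩
    have hg := (Finset.mem_filter.1 hg).2
    exact (Princ.isUnionOfBlocks_of_isPBlock hM hB).sum_mul_conj_eq_zero hM (IsPPart_pow hp hg k) hg
      fun h1 => hx ⟨IsPPart_orderOf hg, h1.symm⟩
  obtain ⟨hx, hc⟩ := hx
  obtain ⟨t, ht⟩ := isConj_iff.1 hc
  let C := centralizer ({x} : Set G)
  have hC : ∀ y, y ∈ C ↔ y * x ^ k = x ^ k * y := fun y => by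
    rw [mem_centralizer_singleton_iff]
    refine ⟨fun h => (Commute.pow_right h k).eq, fun h => ?_⟩
    obtain ⟨j, hj⟩ := exists_pow_eq_self_of_coprime (x := x)
      (hk.coprime_dvd_right (orderOf_dvd_natCard x))
    rw [← hj]
    exact (Commute.pow_right h j).eq
  have hN : t⁻¹ ∈ normalizer (C : Set G) := mem_normalizer_fintype fun y hy => by
    have h1 := (hC y).1 hy
    rw [← ht] at h1
    refine mem_centralizer_singleton_iff.2 ?_
    calc t⁻¹ * y * t⁻¹⁻¹ * x = t⁻¹ * (y * (t * x * t⁻¹)) * t := by group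
      _ = x * (t⁻¹ * y * t⁻¹⁻¹) := by rw [h1]; group
  let e : C ≃* C := C.normalizerMonoidHom ⟨t⁻¹, hN⟩
  have he : ∀ y : C, (e y : G) = t⁻¹ * y * t⁻¹⁻¹ := fun y => rfl
  obtain ⟨m, hm⟩ := exists_nat_trace_union hM (Princ.isUnionOfBlocks_indSet hM x B) e
  refine ⟨Nat.card C * m, ?_⟩
  rw [Nat.cast_mul, ← hm, Finset.mul_sum]
  simp only [card_mul_classInner]
  rw [Finset.sum_comm (s := irrFin _)]
  have h1 : ∀ y : C, ∑ ξ ∈ irrFin (Princ.indSet M x B),
      pRegularPart p (ξ : C → ℂ) (e y) * conj ((ξ : C → ℂ) y) = if ¬ p ∣ orderOf y then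
        ∑ χ ∈ irrFin B, (χ : G → ℂ) ((x * y) ^ k) * conj ((χ : G → ℂ) (x * y)) else 0 := by
    intro y
    have h2 : orderOf (e y) = orderOf y := e.orderOf_eq y
    by_cases hy : p ∣ orderOf y
    · rw [if_neg (not_not.2 hy)]
      refine Finset.sum_eq_zero fun ξ _ => ?_
      rw [pRegularPart_of_dvd _ _ (h2 ▸ hy), zero_mul]
    · rw [if_pos hy]
      simp only [pRegularPart_of_regular _ _ (h2 ▸ hy)]
      rw [← Princ.sum_mul_conj_section hM hx hB (h2 ▸ hy) hy]
      refine Finset.sum_congr rfl fun χ _ => ?_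
      have h3 : Commute x y := (mem_centralizer_singleton_iff.1 y.2).symm
      rw [h3.mul_pow, h y (by rwa [orderOf_coe]), ← ht, ← χ.2.isClassFunction (x * e y) t, he]
      congr 2
      group
  simp only [h1]
  rw [← Finset.sum_filter]
  symm
  refine Finset.sum_bij (fun y _ => x * y) (fun y hy => ?_) (fun a _ b _ h => ?_) (fun g hg => ?_)
    fun _ _ => rfl
  · exact Finset.mem_filter.2 ⟨Finset.mem_univ _,
      Princ.isPPart_mul_coe hx (Finset.mem_filter.1 hy).2⟩
  · exact Subtype.ext (mul_left_cancel h)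
  · have hg := (Finset.mem_filter.1 hg).2
    refine ⟨⟨x⁻¹ * g, C.mul_mem (C.inv_mem (mem_centralizer_singleton_iff.2 rfl))
      (IsPPart_mem_centralizer hg)⟩, Finset.mem_filter.2 ⟨Finset.mem_univ _, ?_⟩, by simp⟩
    rw [← orderOf_coe]
    exact IsPPart_not_dvd hg

/-- A Galois automorphism fixing the `p'`-roots of unity fixes at least `l(B)` characters of `B`. -/
theorem blockRank_le_card_fixed (hM : IsPModular p M) (hB : IsPBlock M B) {k : ℕ}
    (hk : k.Coprime (Nat.card G)) (h : ∀ g : G, ¬ p ∣ orderOf g → g ^ k = g) :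
    blockRank p B ≤ Nat.card {χ : IrrCharacter G // χ ∈ B ∧ powI hk χ = χ} := by
  classical
  have hp := hM.1
  choose m hm using exists_nat_section hM hB hk h
  choose pp hpp using exists_isPPart (G := G) hp
  have h1 : (Nat.card G : ℂ) * Nat.card {χ : IrrCharacter G // χ ∈ B ∧ powI hk χ = χ} =
      ∑ x, (m x : ℂ) := by
    rw [Nat.subtype_card ((irrFin B).filter fun χ => powI hk χ = χ) (by simp), ← Finset.sum_boole,
      Finset.mul_sum]
    simp only [← classInner_irr, card_mul_classInner, ← hm, powI_apply]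
    rw [Finset.sum_comm, ← Finset.sum_fiberwise Finset.univ pp]
    refine Finset.sum_congr rfl fun x _ => Finset.sum_congr ?_ fun _ _ => rfl
    ext g
    simp only [Finset.mem_filter, Finset.mem_univ, true_and]
    exact ⟨fun h => h ▸ hpp g, IsPPart_unique hp (hpp g)⟩
  have h2 : (m 1 : ℂ) = Nat.card G * blockRank p B := by
    rw [← hm, ← Ht.sum_classInner_pRegularPart_union hM (Princ.isUnionOfBlocks_of_isPBlock hM hB),
      Finset.mul_sum]
    simp only [card_mul_classInner]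
    rw [Finset.sum_comm (s := irrFin B), Finset.sum_filter]
    refine Finset.sum_congr rfl fun g _ => ?_
    rw [isPPart_one_iff]
    by_cases hg : p ∣ orderOf g
    · rw [if_neg (not_not.2 hg)]
      exact (Finset.sum_eq_zero fun ξ _ => by rw [pRegularPart_of_dvd _ _ hg, zero_mul]).symm
    · simp only [if_pos hg, pRegularPart_of_regular _ _ hg, h g hg]
  have h3 : m 1 ≤ ∑ x, m x := Finset.single_le_sum (fun _ _ => Nat.zero_le _) (Finset.mem_univ 1)
  have h4 : Nat.card G * Nat.card {χ : IrrCharacter G // χ ∈ B ∧ powI hk χ = χ} = ∑ x, m x := by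
    exact_mod_cast h1
  have h5 : m 1 = Nat.card G * blockRank p B := by exact_mod_cast h2
  rw [← h4, h5] at h3
  exact Nat.le_of_mul_le_mul_left h3 Nat.card_pos

end Cfsg.Lib.Block
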