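import Cfsg.Agent.Char.DegTwo
import Cfsg.Agent.Char.FullyRam
import Cfsg.Agent.Solv.PGroupNormal
import Cfsg.Agent.Solv.CyclicP
import Cfsg.Agent.Solv.DerivedLength
import Cfsg.Agent.FT.BG4.Chief
import Cfsg.Agent.Perm.MinNormal

/-! Solvable groups with squarefree character degrees have derived length at most four. -/

namespace Cfsg.Lib.Block.SqF

open Cfsg Cfsg.Lib.Char Cfsg.Lib.Char.Deg Cfsg.Lib.Solv
open scoped commutatorElement

universe u

/-- An `r`-group acting faithfully and coprimely with all orbits of length dividing `r` has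
order dividing `r`. -/
theorem card_dvd_of_stab {R L : Type*} [Group R] [Finite R] [CommGroup L]
    [MulDistribMulAction R L] {r : ℕ} [hr : Fact r.Prime] (hR : IsPGroup r R)
    (hL : r.Coprime (Nat.card L)) (hf : ∀ x : R, (∀ l : L, x • l = l) → x = 1)
    (hs : ∀ l : L, (MulAction.stabilizer R l).index ∣ r) : Nat.card R ∣ r := by
  have hidx : ∀ l : L, MulAction.stabilizer R l ≠ ⊤ → (MulAction.stabilizer R l).index = r :=
    fun l hl => ((Nat.dvd_prime hr.out).1 (hs l)).resolve_left
      fun h => hl (Subgroup.index_eq_one.1 h)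
  by_cases h0 : ∀ l : L, MulAction.stabilizer R l = ⊤
  · have : Subsingleton R := ⟨fun a b => by
      rw [hf a fun l => (h0 l).ge (Subgroup.mem_top a), hf b fun l => (h0 l).ge (Subgroup.mem_top b)]⟩
    rw [Nat.card_of_subsingleton (1 : R)]
    exact one_dvd _
  push Not at h0
  obtain ⟨l₁, h₁⟩ := h0
  have key : ∀ l₂ : L, MulAction.stabilizer R l₁ ≤ MulAction.stabilizer R l₂ := by
    intro l₂
    by_contra hn
    have h₂ : MulAction.stabilizer R l₂ ≠ ⊤ := fun h => hn (h.ge.trans' le_top)
    have n₁ := PG.normal_of_index_eq_prime hR (hidx _ h₁)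
    have n₂ := PG.normal_of_index_eq_prime hR (hidx _ h₂)
    have c₂ : IsCoatom (MulAction.stabilizer R l₂) :=
      PG.isCoatom_of_index_prime (by rw [hidx _ h₂]; exact hr.out)
    have hsup : MulAction.stabilizer R l₁ ⊔ MulAction.stabilizer R l₂ = ⊤ :=
      c₂.2 _ (lt_of_le_of_ne le_sup_right fun h => hn (h.ge.trans' le_sup_left))
    have hle : MulAction.stabilizer R (l₁ * l₂) ≤
        MulAction.stabilizer R l₁ ⊓ MulAction.stabilizer R l₂ := by
      intro x hx
      rw [MulAction.mem_stabilizer_iff, smul_mul'] at hx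
      have e : x • l₁ / l₁ = l₂ / x • l₂ := by
        rw [div_eq_div_iff_mul_eq_mul, hx, mul_comm]
      have f₁ : MulAction.stabilizer R l₁ ≤ MulAction.stabilizer R (x • l₁ / l₁) := fun m hm => by
        have h1 : (x⁻¹ * m * x) • l₁ = l₁ := n₁.conj_mem' m hm x
        rw [MulAction.mem_stabilizer_iff, smul_div', (hm : m • l₁ = l₁), ← mul_smul]
        congr 1
        conv_rhs => rw [← h1, ← mul_smul]
        congr 1
        group
      have f₂ : MulAction.stabilizer R l₂ ≤ MulAction.stabilizer R (x • l₁ / l₁) := fun m hm => by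
        have h1 : (x⁻¹ * m * x) • l₂ = l₂ := n₂.conj_mem' m hm x
        rw [e, MulAction.mem_stabilizer_iff, smul_div', (hm : m • l₂ = l₂), ← mul_smul]
        congr 1
        conv_rhs => rw [← h1, ← mul_smul]
        congr 1
        group
      have hx1 : x • (x • l₁ / l₁) = x • l₁ / l₁ :=
        (sup_le f₁ f₂) (hsup.ge (Subgroup.mem_top x))
      obtain ⟨k, hk⟩ := hR x
      have h3 : x • l₁ = l₁ :=
        smul_eq_of_smul_div (n := r ^ k) (Nat.Coprime.pow_left k hL) (by rw [hk, one_smul]) hx1
      refine ⟨h3, ?_⟩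
      rw [h3, mul_right_inj] at hx
      exact hx
    have h4 : MulAction.stabilizer R (l₁ * l₂) = MulAction.stabilizer R l₁ :=
      eq_of_le_of_index_le (hle.trans inf_le_left)
        (by rw [hidx _ h₁]; exact Nat.le_of_dvd hr.out.pos (hs _))
    exact hn (h4.ge.trans (hle.trans inf_le_right))
  have hb : MulAction.stabilizer R l₁ = ⊥ :=
    eq_bot_iff.2 fun x hx => hf x fun l => key l hx
  have := hidx _ h₁
  rw [hb, Subgroup.index_bot] at this
  exact this.dvd

/-- A solvable group acting faithfully on an abelian `q`-group with squarefree orbit lengths and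
with no normal `q`-subgroup is metabelian. -/
theorem derivedSeries_two_of_stab {H L : Type*} [Group H] [Finite H] [Group.IsSolvable H]
    [CommGroup L] [Finite L] [MulDistribMulAction H L] {q : ℕ} [hq : Fact q.Prime]
    (hL : IsPGroup q L) (hq0 : pCore q H = ⊥) (hf : ∀ x : H, (∀ l : L, x • l = l) → x = 1)
    (hs : ∀ l : L, Squarefree (MulAction.stabilizer H l).index) : derivedSeries H 2 = ⊥ := by
  have hcyc : ∀ (r : ℕ) [Fact r.Prime], IsCyclic (pCore r H) := by
    intro r hr
    by_cases hrq : r = q
    · subst hrq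
      rw [hq0]
      infer_instance
    have hR : IsPGroup r (pCore r H) := pCore_isPGroup r H
    obtain ⟨n, hn⟩ := IsPGroup.iff_card.1 hL
    have hcop : r.Coprime (Nat.card L) := by
      rw [hn]
      exact Nat.Coprime.pow_right n ((Nat.coprime_primes hr.out hq.out).2 hrq)
    have h1 : Nat.card (pCore r H) ∣ r := by
      refine card_dvd_of_stab (L := L) hR hcop (fun x hx => Subtype.ext (hf x hx)) fun l => ?_
      have e : MulAction.stabilizer (pCore r H) l =
          (MulAction.stabilizer H l).subgroupOf (pCore r H) := rfl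
      obtain ⟨k, hk⟩ := IsPGroup.iff_card.1 hR
      have h2 : Squarefree (MulAction.stabilizer (pCore r H) l).index :=
        (hs l).squarefree_of_dvd
          (by rw [e]; exact relIndex_dvd_index_of_normal_right' _ _)
      exact h2.isRadical k r (hk ▸ Subgroup.index_dvd_card _)
    rcases (Nat.dvd_prime hr.out).1 h1 with h | h
    · have : Subsingleton (pCore r H) := (Nat.card_eq_one_iff_unique.1 h).1
      infer_instance
    · exact isCyclic_of_prime_card h
  have h1 : fittingSubgroup H ≤ Subgroup.centralizer (commutator H : Set H) :=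
    fitting_le_of_forall_pCore_le fun r _ => by
      have := hcyc r
      exact Subgroup.le_centralizer_iff.1 (PG.commutator_le_centralizer_of_isCyclic _)
  have h2 : commutator H ≤ fittingSubgroup H :=
    (Subgroup.le_centralizer_iff.1 h1).trans (centralizer_fitting_le H)
  rw [derivedSeries_succ, derivedSeries_one]
  exact Subgroup.commutator_eq_bot_iff_le_centralizer.2 (h2.trans h1)

theorem le_centralizer_minimal {G : Type u} [Group G] [Finite G] [Group.IsSolvable G]
    (h : ∀ χ, IsIrrCharacter G χ → Squarefree (charDegree χ)) {V : Subgroup G} [hV : V.Normal]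
    (h0 : V ≠ ⊥) (hmin : ∀ M : Subgroup G, M.Normal → M ≤ V → M = ⊥ ∨ M = V) :
    derivedSeries G 2 ≤ Subgroup.centralizer (V : Set G) := by
  have hab0 : ⁅V, V⁆ = ⊥ :=
    (hmin _ inferInstance (Subgroup.commutator_le_left V V)).resolve_right
      (Group.IsSolvable.commutator_lt_of_ne_bot h0).ne
  have hab : ∀ a ∈ V, ∀ b ∈ V, a * b = b * a := fun a ha b hb =>
    (Subgroup.commutator_eq_bot_iff_le_centralizer.1 hab0 ha b hb).symm
  obtain ⟨q, hq, hpow⟩ := Perm.exists_prime_pow_eq_one_of_minNormal V h0 hmin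
    ⟨⟨fun a b => Subtype.ext (hab a a.2 b b.2)⟩⟩
  have : Fact q.Prime := ⟨hq⟩
  have hVq : IsPGroup q V := fun v => ⟨1, Subtype.ext (by simpa using hpow v v.2)⟩
  letI := dualAct V
  have : Finite (V →* ℂˣ) := inferInstance
  let φ := MulDistribMulAction.toMulAut G (V →* ℂˣ)
  have hker : ∀ g : G, φ g = 1 → g ∈ Subgroup.centralizer (V : Set G) := fun g hg a ha =>
    (mem_centralizer_of_forall_mem_inertia hab (fun lam => by
      rw [← stabilizer_dualAct]
      exact DFunLike.congr_fun hg lam) a ha).symm
  have hker' : ∀ g ∈ Subgroup.centralizer (V : Set G), φ g = 1 := fun g hg => by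
    ext lam a
    change (lam (MulAut.conjNormal g⁻¹ a) : ℂ) = lam a
    congr 2
    apply Subtype.ext
    have := hg a a.2
    simp only [MulAut.conjNormal_apply, inv_inv]
    rw [mul_assoc, this, inv_mul_cancel_left]
  have hsurj := φ.rangeRestrict_surjective
  have : Finite φ.range := Finite.of_surjective _ hsurj
  have : Group.IsSolvable φ.range := solvable_of_surjective hsurj
  have hL : IsPGroup q (V →* ℂˣ) := fun lam => ⟨1, by
    ext a
    rw [pow_one, MonoidHom.pow_apply, ← map_pow, show a ^ q = 1 from Subtype.ext (hpow a a.2),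
      map_one, MonoidHom.one_apply]⟩
  have hq0 : pCore q φ.range = ⊥ := by
    have h1 : (pCore q φ.range).comap φ.rangeRestrict ≤ Subgroup.centralizer (V : Set G) := by
      refine FT.BG4.le_centralizer_of_minimal hVq hmin fun x hx => ?_
      obtain ⟨k, hk⟩ := pCore_isPGroup q φ.range ⟨_, hx⟩
      refine ⟨k, hker _ ?_⟩
      have := congrArg (fun y : pCore q φ.range => ((y : φ.range) : MulAut (V →* ℂˣ))) hk
      simpa using this
    refine eq_bot_iff.2 fun y hy => ?_
    obtain ⟨x, rfl⟩ := hsurj y
    exact Subtype.ext (hker' x (h1 hy))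
  have h2 : derivedSeries φ.range 2 = ⊥ := by
    refine derivedSeries_two_of_stab (L := V →* ℂˣ) hL hq0
      (fun x hx => Subtype.ext (MulEquiv.ext hx)) fun lam => ?_
    have e : MulAction.stabilizer G lam =
        (MulAction.stabilizer φ.range lam).comap φ.rangeRestrict := rfl
    rw [← Subgroup.index_comap_of_surjective _ hsurj, ← e, stabilizer_dualAct]
    obtain ⟨χ, hχ, hd⟩ := exists_irr_deg_dvd (N := V) (isIrrCharacter_monoidHom lam)
    exact (h χ hχ).squarefree_of_dvd ((dvd_mul_right _ _).trans hd)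
  intro g hg
  have h3 := map_derivedSeries_le_derivedSeries φ.rangeRestrict 2 ⟨g, hg, rfl⟩
  rw [h2, Subgroup.mem_bot] at h3
  exact hker g (congrArg Subtype.val h3)

theorem isNilpotent_aux (n : ℕ) : ∀ (G : Type u) [Group G] [Finite G] [Group.IsSolvable G],
    Nat.card G = n → (∀ χ, IsIrrCharacter G χ → Squarefree (charDegree χ)) →
      Group.IsNilpotent (derivedSeries G 2) := by
  induction n using Nat.strong_induction_on with
  | _ n ih =>
  intro G _ _ _ hn h
  by_cases h0 : (⊤ : Subgroup G) = ⊥
  · have : derivedSeries G 2 = ⊥ := eq_bot_iff.2 (le_top.trans h0.le)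
    rw [this]
    infer_instance
  obtain ⟨V, hV, hV0, -, hmin⟩ := exists_minimal_normal_le (⊤ : Subgroup G) h0
  refine isNilpotent_of_map_mk'_of_le_centralizer (le_centralizer_minimal h hV0 hmin) ?_
  rw [map_derivedSeries_eq (QuotientGroup.mk'_surjective V)]
  refine ih _ (hn ▸ card_quotient_lt_of_ne_bot V hV0) _ rfl fun β hβ => ?_
  have := h _ (hβ.comp_of_surjective (QuotientGroup.mk' V) (QuotientGroup.mk'_surjective V))
  rwa [deg_comp] at this

theorem derivedSeries_two_of_isNilpotent {N : Type*} [Group N] [Finite N] [Group.IsNilpotent N]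
    (h : ∀ χ, IsIrrCharacter N χ → Squarefree (charDegree χ)) : derivedSeries N 2 = ⊥ := by
  have key : ∀ p : ℕ, p.Prime → derivedSeries N 2 ≤ pPrimeCore p N := by
    intro p hp
    have : Fact p.Prime := ⟨hp⟩
    have hc := isComplement'_pCore_pPrimeCore_of_isNilpotent (G := N) p
    obtain ⟨k, hk⟩ := IsPGroup.iff_card.1 (pCore_isPGroup p N)
    have hcard : Nat.card (N ⧸ pPrimeCore p N) = p ^ k := by
      rw [← hk, ← hc.index_eq_card]
      rfl
    have h1 : derivedSeries (N ⧸ pPrimeCore p N) 2 = ⊥ := by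
      refine derivedSeries_two_of_two_degrees (m := p) fun β hβ => (Nat.dvd_prime hp).1 ?_
      have := h _ (hβ.comp_of_surjective (QuotientGroup.mk' _) (QuotientGroup.mk'_surjective _))
      rw [deg_comp] at this
      exact this.isRadical k p (hcard ▸ deg_dvd_card hβ)
    intro g hg
    have h3 := map_derivedSeries_le_derivedSeries (QuotientGroup.mk' (pPrimeCore p N)) 2
      ⟨g, hg, rfl⟩
    rw [h1, Subgroup.mem_bot] at h3
    exact (QuotientGroup.eq_one_iff g).1 h3
  rw [← Subgroup.card_eq_one]
  by_contra hne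
  obtain ⟨p, hp, hd⟩ := Nat.exists_prime_and_dvd hne
  have : Fact p.Prime := ⟨hp⟩
  exact not_dvd_card_pPrimeCore p N (hd.trans (Subgroup.card_dvd_of_le (key p hp)))

theorem derivedSeries_four {G : Type u} [Group G] [Finite G] [Group.IsSolvable G]
    (h : ∀ χ, IsIrrCharacter G χ → Squarefree (charDegree χ)) : derivedSeries G 4 = ⊥ := by
  have := isNilpotent_aux _ G rfl h
  have h1 : derivedSeries (derivedSeries G 2) 2 = ⊥ :=
    derivedSeries_two_of_isNilpotent fun θ hθ => by
      obtain ⟨χ, hχ, hd⟩ := exists_irr_deg_dvd (N := derivedSeries G 2) hθ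
      exact (h χ hχ).squarefree_of_dvd ((dvd_mul_left _ _).trans hd)
  have h2 := derivedSeries_add_le_map (le_refl (derivedSeries G 2)) 2
  rw [h1, Subgroup.map_bot] at h2
  exact eq_bot_iff.2 h2

end Cfsg.Lib.Block.SqF
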